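/-
Non-local maximal subgroups of a group of Janko-four type: arithmetic and the statements of the parts.
-/
import Cfsg.Agent.Spor.J4XF
import Cfsg.Agent.Spor.J4XU
import Cfsg.Agent.Spor.J4PGL1
import Cfsg.Agent.Spor.SelfCent
import Cfsg.Agent.Transfer.Control
import Cfsg.Prelude.Def_Classical

set_option autoImplicit false
set_option synthInstance.maxSize 4096

namespace CL.JX

open Cfsg Subgroup CL.J4 CL.J4X CL.Fus

universe u

section Ar
variable {n : ℕ} (hn : n ∣ 86775571046077562880) (ho : okB n = true)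
include hn ho

theorem ar3 (h : 23 * 37 * 43 ∣ n) : n = 86775571046077562880 ∨ n * 2 = 86775571046077562880 :=
  of_decide_eq_true (enum' (a := fun _ => true)
    (b := fun n => decide (n = 86775571046077562880 ∨ n * 2 = 86775571046077562880)) (by decide +kernel) hn h rfl ho)

theorem arU11 (h : 37 * 1331 * 80 ∣ n) (h1 : n / (1331 * 80) % 1331 = 1) :
    n = 141831360 ∨ 43 ∣ n ∧ ks n 43 14 = [14] ∨ 37 ∣ n ∧ ks n 37 12 = [12] :=
  of_decide_eq_true (enum' (a := fun n => n / (1331 * 80) % 1331 == 1) (b := fun n => decide (n = 141831360 ∨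
    43 ∣ n ∧ ks n 43 14 = [14] ∨ 37 ∣ n ∧ ks n 37 12 = [12])) (by decide +kernel) hn h (by simp [h1]) ho)

theorem arL32 (h : 310 * 33 ∣ n) (h1 : n / 310 % 31 = 1) (h2 : n / 30 % 5 = 1) (h7 : ¬ 7 ∣ n) : n = 163680 :=
  of_decide_eq_true (enum' (a := fun n => n / 310 % 31 == 1 && n / 30 % 5 == 1 && n % 7 != 0)
    (b := fun n => decide (n = 163680)) (by decide +kernel) hn h
    (by simpa [h1, h2, Nat.dvd_iff_mod_eq_zero] using h7) ho)

theorem arP23 (h : 506 * 6 ∣ n) (h1 : n / 506 % 23 = 1) (h2 : n / 44 % 11 = 1) : n = 12144 :=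
  of_decide_eq_true (enum' (a := fun n => n / 506 % 23 == 1 && n / 44 % 11 == 1)
    (b := fun n => decide (n = 12144)) (by decide +kernel) hn h (by simp [h1, h2]) ho)

theorem arM22 (h : 32 * 3 * 5 * 7 * 11 ∣ n) (h1 : n / 42 % 7 = 1) (h2 : n / 110 % 11 = 1) : n = 887040 :=
  of_decide_eq_true (enum' (a := fun n => n / 42 % 7 == 1 && n / 110 % 11 == 1)
    (b := fun n => decide (n = 887040)) (by decide +kernel) hn h (by simp [h1, h2]) ho)

theorem arU33 (h : 216 * 7 ∣ n) (h1 : n / 216 % 27 = 1) (h2 : n / 21 % 7 = 1) :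
    n = 6048 ∨ 43 ∣ n ∧ ks n 43 14 = [14] ∨ 23 ∣ n ∧ ks n 23 22 = [1] :=
  of_decide_eq_true (enum' (a := fun n => n / 216 % 27 == 1 && n / 21 % 7 == 1) (b := fun n => decide (n = 6048 ∨
    43 ∣ n ∧ ks n 43 14 = [14] ∨ 23 ∣ n ∧ ks n 23 22 = [1])) (by decide +kernel) hn h (by simp [h1, h2]) ho)

end Ar

variable {G : Type u} [Group G]

/-- Three large primes generate everything. -/
theorem top3 [Finite G] [IsSimpleGroup G] (J : JM G) {W : Subgroup G} (h : 23 * 37 * 43 ∣ Nat.card W) : W = ⊤ := by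
  rcases ar3 (card_dvd J W) (ok_card J W) h with e | e
  · exact eq_top J e
  · have hi : W.index = 2 := by
      have := W.card_mul_index
      rw [J.card_G, ← e] at this
      exact Nat.eq_of_mul_eq_mul_left Nat.card_pos this
    rcases (normal_of_index_eq_two hi).eq_bot_or_eq_top with k | k
    · rw [k, card_bot] at e; norm_num at e
    · exact k

/-- Every proper overgroup of `X` meets `N` in `Y`. -/
def Loc (X N Y : Subgroup G) : Prop := ∀ W : Subgroup G, X ≤ W → W ≠ ⊤ → W ⊓ N = Y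

/-- `g` is a product of two elements of odd order of `X`. -/
def Od (X : Subgroup G) (g : G) : Prop := ∃ o ∈ X, Odd (orderOf o) ∧ Odd (orderOf (g * o))

/-- generators of the wreath product of `Z₄` by `Z₂` -/
def Wr (x y z : G) : Prop :=
  orderOf x = 4 ∧ x * y = y * x ∧ x ^ 2 ≠ y ^ 2 ∧ orderOf z = 2 ∧ z * x * z⁻¹ = y

/-- the data for Thompson transfer: `c` normalises `⟨S⟩` and is not conjugate into it -/
def Tr (X : Subgroup G) (S : Set G) (c : G) : Prop :=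
  c ∈ X ∧ c * c = 1 ∧ (∀ s ∈ S, s ∈ X ∧ Od X s ∧ c * s * c⁻¹ ∈ closure S) ∧ ∀ g : G, g * c * g⁻¹ ∉ closure S

/-- the Borel subgroup `3^(1+2) : 8` of `U₃(3)` -/
structure D33 (z b r h : G) : Prop where
  oz : orderOf z = 3
  ob : orderOf b = 3
  or : orderOf r = 3
  oh : orderOf h = 8
  zb : z * b = b * z
  zr : z * r = r * z
  rb : r * b * r⁻¹ = b * z
  hz : h * z * h⁻¹ = z⁻¹
  sb : h ^ 4 * b * (h ^ 4)⁻¹ = b⁻¹
  hn : h ∈ normalizer (closure ({z, b, r} : Set G) : Set G)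
  card : Nat.card (closure ({z, b, r} : Set G)) = 27
  c24 : Nat.card (closure ({z, h} : Set G)) = 24

/-- Thompson transfer. -/
def Idx2 : Prop := ∀ {G : Type u} [Group G] [Finite G] (X : Subgroup G) (S : Set G) (c : G) (m : ℕ), Tr X S c →
  Nat.card X = 2 * Nat.card (closure S) * m → Odd m →
  ∃ K : Subgroup G, K ≤ X ∧ K.relIndex X = 2 ∧ closure S ≤ K ∧ ∀ g ∈ X, Odd (orderOf g) → g ∈ K

/-- Recognition of the two unitary groups. -/
def RecU3 : Prop := ∀ {K : Type u} [Group K] [Finite K] [IsSimpleGroup K] (x y z : K), Wr x y z →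
  (Nat.card K = 6048 → ∃ (F : Type) (_ : Field F) (_ : Fintype F), Fintype.card F = 9 ∧ Nonempty (K ≃* PSU 3 F 3)) ∧
  (Nat.card K = 70915680 →
    ∃ (F : Type) (_ : Field F) (_ : Fintype F), Fintype.card F = 121 ∧ Nonempty (K ≃* PSU 3 F 11))

/-- The normaliser of a subgroup of order eleven of the second class. -/
def Norm11 : Prop := ∀ {G : Type u} [Group G] [Finite G] [IsSimpleGroup G] (_ : JM G) (y u v : G), orderOf y = 11 →
  orderOf u = 11 → orderOf v = 11 → y * u = u * y → u * v = v * u → y * v ≠ v * y →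
  Nat.card (normalizer (zpowers y : Set G)) ≤ 2420

/-- `U₃(11) : 2` -/
def ThmU11 : Prop := ∀ {G : Type u} [Group G] [Finite G] [IsSimpleGroup G] (_ : JM G) (X : Subgroup G)
  (a u y v h c x₁ y₁ z₁ : G), X ≠ ⊤ → a ∈ X → u ∈ X → y ∈ X → v ∈ X → h ∈ X → orderOf a = 37 → orderOf u = 11 →
  orderOf y = 11 → orderOf v = 11 → y * u = u * y → u * v = v * u → y * v ≠ v * y → orderOf h = 40 →
  h ∈ normalizer (zpowers u : Set G) → c ∈ normalizer (zpowers u : Set G) → c * h * c⁻¹ ∈ zpowers h → c * h ≠ h * c →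
  Wr x₁ y₁ z₁ → Tr X {x₁, y₁, z₁} c → Nat.card (closure ({x₁, y₁, z₁} : Set G)) = 32 →
  IsCoatom X ∧ ∃ (K : Subgroup X) (F : Type) (_ : Field F) (_ : Fintype F),
    Fintype.card F = 121 ∧ K.Normal ∧ K.index = 2 ∧ Nonempty (K ≃* PSU 3 F 11)

/-- `M₂₂ : 2` -/
def ThmM22 : Prop := ∀ {G : Type u} [Group G] [Finite G] [IsSimpleGroup G] (_ : JM G) (X Y Y' K : Subgroup G)
  (y d s : G), X ≠ ⊤ → y ∈ X → d ∈ X → s ∈ X → orderOf y = 11 → d * y * d⁻¹ = y ^ 2 → orderOf s = 7 →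
  Loc X (normalizer (zpowers y : Set G)) Y → Nat.card Y = 110 → Loc X (normalizer (zpowers s : Set G)) Y' →
  Nat.card Y' = 42 → K ≤ X → K.relIndex X = 2 → 32 ∣ Nat.card X → IsCoatom X ∧ Nonempty (X ≃* MulAut Spor.M22)

/-- `L₂(32) : 5` -/
def ThmL32 : Prop := ∀ {G : Type u} [Group G] [Finite G] [IsSimpleGroup G] (_ : JM G) (X Y : Subgroup G)
  (a d r y : G) (S : Set G), X ≠ ⊤ → a ∈ X → d ∈ X → r ∈ X → y ∈ X → orderOf a = 31 → orderOf d = 10 →
  d ∈ normalizer (zpowers a : Set G) → orderOf r = 5 → orderOf y = 11 →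
  Loc X (normalizer (zpowers r : Set G)) Y → Nat.card Y = 30 → Y ≤ centralizer {r} →
  (∀ s ∈ S, s ∈ X ∧ s * s = 1 ∧ ∀ t ∈ S, s * t = t * s) → Nat.card (closure S) = 32 →
  IsCoatom X ∧ ∃ (K : Subgroup X) (F : Type) (_ : Field F) (_ : Fintype F),
    Fintype.card F = 32 ∧ K.Normal ∧ K.index = 5 ∧ Nonempty (K ≃* Matrix.ProjectiveSpecialLinearGroup (Fin 2) F)

/-- `PGL₂(23)` -/
def ThmP23 : Prop := ∀ {G : Type u} [Group G] [Finite G] [IsSimpleGroup G] (_ : JM G) (X Y : Subgroup G)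
  (a b y t : G), X ≠ ⊤ → a ∈ X → b ∈ X → y ∈ X → t ∈ X → orderOf a = 23 → orderOf b = 22 →
  b ∈ normalizer (zpowers a : Set G) → orderOf y = 11 → orderOf t = 3 →
  Loc X (normalizer (zpowers y : Set G)) Y → Nat.card Y = 44 →
  IsCoatom X ∧ Nonempty (X ≃* GL (Fin 2) (ZMod 23) ⧸ center (GL (Fin 2) (ZMod 23)))

/-- the centraliser of `z` in an overgroup of the Borel subgroup -/
def CZ (W : Subgroup G) (z b r : G) : Prop :=
  Nat.card ↥(W ⊓ centralizer {z}) = 108 ∧ W ⊓ centralizer {z} ≤ normalizer (closure ({z, b, r} : Set G) : Set G) ∧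
    ∀ g ∈ W ⊓ centralizer {z}, Odd (orderOf g) → g ∈ closure ({z, b, r} : Set G)

/-- first step for `U₃(3)` -/
def TIA : Prop := ∀ {G : Type u} [Group G] [Finite G] (W : Subgroup G) (z b r h : G), D33 z b r h → z ∈ W → b ∈ W →
  r ∈ W → h ∈ W → Nat.card ↥(W ⊓ normalizer (closure ({z, b, r} : Set G) : Set G)) = 216 →
  W ⊓ normalizer (zpowers (z * h ^ 4) : Set G) = closure {z, h} → CZ W z b r

/-- second step for `U₃(3)`: the centraliser of `b` -/
def TIB : Prop := ∀ {G : Type u} [Group G] [Finite G] [IsSimpleGroup G] (_ : JM G) (W : Subgroup G) (z b r h s : G),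
  D33 z b r h → z ∈ W → b ∈ W → r ∈ W → h ∈ W → s ∈ W → CZ W z b r →
  W ⊓ (centralizer {b} ⊓ centralizer {h ^ 4}) = zpowers z → orderOf s = 7 →
  Nat.card ↥(W ⊓ normalizer (zpowers s : Set G)) = 21 →
  Nat.card ↥(W ⊓ centralizer {b}) = 9 ∧ ∀ g ∈ W, g * b * g⁻¹ ∉ zpowers z

/-- third step for `U₃(3)`: trivial intersection -/
def TIC : Prop := ∀ {G : Type u} [Group G] [Finite G] (W : Subgroup G) (z b r h : G), D33 z b r h → z ∈ W → b ∈ W →
  r ∈ W → CZ W z b r → Nat.card ↥(W ⊓ normalizer (closure ({z, b, r} : Set G) : Set G)) = 216 →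
  Nat.card ↥(W ⊓ centralizer {b}) = 9 → (∀ g ∈ W, g * b * g⁻¹ ∉ zpowers z) →
  ∀ g ∈ W, ∀ x ∈ closure ({z, b, r} : Set G), x ≠ 1 → g * x * g⁻¹ ∈ closure ({z, b, r} : Set G) →
    g ∈ normalizer (closure ({z, b, r} : Set G) : Set G)

/-- `U₃(3)` -/
def ThmU33 : Prop := ∀ {G : Type u} [Group G] [Finite G] [IsSimpleGroup G] (_ : JM G) (X B Y : Subgroup G)
  (z b r h s t x₁ y₁ z₁ : G), X ≠ ⊤ → D33 z b r h → z ∈ X → b ∈ X → r ∈ X → h ∈ X → s ∈ X → t ∈ X → x₁ ∈ X →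
  z₁ ∈ X → Loc X (normalizer (closure ({z, b, r} : Set G) : Set G)) B → Nat.card B = 216 →
  Loc X (normalizer (zpowers (z * h ^ 4) : Set G)) (closure {z, h}) →
  Loc X (centralizer {b} ⊓ centralizer {h ^ 4}) (zpowers z) → orderOf s = 7 → t * s * t⁻¹ = s ^ 2 →
  Loc X (normalizer (zpowers s : Set G)) Y → Nat.card Y = 21 → Wr x₁ y₁ z₁ →
  IsCoatom X ∧ ∃ (F : Type) (_ : Field F) (_ : Fintype F), Fintype.card F = 9 ∧ Nonempty (X ≃* PSU 3 F 3)

end CL.JX
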